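import Cfsg.Agent.Invol.RankOne

/-!
# Groups with a quaternion Sylow 2-subgroup of order 8 and no normal 2-complement
-/

set_option autoImplicit false

namespace Cfsg.Agent.Invol

open Cfsg Subgroup

universe u

variable {G : Type u} [Group G] [Finite G]

theorem q8_sylow_card (S : Sylow 2 G) (e : (S : Subgroup G) ≃* QuaternionGroup 2) :
    Nat.card (S : Subgroup G) = 8 := by
  rw [Nat.card_congr e.toEquiv, Nat.card_eq_fintype_card, QuaternionGroup.card]

/-- Two commuting involutions are equal. -/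
theorem q8_sylow_uniq (S : Sylow 2 G) (e : (S : Subgroup G) ≃* QuaternionGroup 2) {a b : G}
    (ha : orderOf a = 2) (hb : orderOf b = 2) (hab : Commute a b) : a = b := by
  obtain ⟨T, haT, hbT⟩ := exists_sylow_of_commute ha hb hab
  have : Fact (Nat.Prime 2) := ⟨Nat.prime_two⟩
  obtain ⟨c, hc⟩ := MulAction.exists_smul_eq G T S
  have hmem : ∀ x ∈ T, c * x * c⁻¹ ∈ (S : Subgroup G) := fun x hx => by
    rw [← hc]; exact ⟨x, hx, rfl⟩
  have hq : ∀ x y : QuaternionGroup 2, x * x = 1 → y * y = 1 → x ≠ 1 → y ≠ 1 → x = y := by decide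
  have hsq : ∀ x : G, ∀ hx : c * x * c⁻¹ ∈ (S : Subgroup G), orderOf x = 2 →
      e ⟨_, hx⟩ * e ⟨_, hx⟩ = 1 ∧ e ⟨_, hx⟩ ≠ 1 := fun x hx ho => by
    refine ⟨?_, fun h1 => ?_⟩
    · rw [← map_mul, ← map_one e]
      congr 1
      exact Subtype.ext (inv_mul_self (by rw [orderOf_conj, ho] : orderOf (c * x * c⁻¹) = 2))
    · rw [← map_one e] at h1
      exact inv_ne_one ho (by simpa using congrArg Subtype.val (e.injective h1))
  obtain ⟨h1, h1'⟩ := hsq a (hmem a haT) ha
  obtain ⟨h2, h2'⟩ := hsq b (hmem b hbT) hb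
  simpa using congrArg Subtype.val (e.injective (hq _ _ h1 h2 h1' h2'))

theorem exists_odd_normalizing (S : Sylow 2 G) (e : (S : Subgroup G) ≃* QuaternionGroup 2)
    (hnc : ¬ HasNormalPComplement 2 G) :
    ∃ g : G, g ∈ normalizer ((S : Subgroup G) : Set G) ∧ Nat.Coprime (orderOf g) 2 ∧
      g ∉ centralizer ((S : Subgroup G) : Set G) := by
  have : Fact (Nat.Prime 2) := ⟨Nat.prime_two⟩
  obtain ⟨Q, hQ, g, hg, hgo, hgc⟩ : ∃ Q : Subgroup G, IsPGroup 2 Q ∧ ∃ g ∈ normalizer (Q : Set G),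
      Nat.Coprime (orderOf g) 2 ∧ g ∉ centralizer (Q : Set G) := by
    by_contra! hall
    exact hnc (Transfer.hasNormalPComplement_of_coprime_centralize
      fun Q hQ _ g hg hgo => hall Q hQ g hg hgo)
  obtain ⟨T, hT⟩ := hQ.exists_le_sylow
  obtain ⟨e'⟩ := H4.equiv_quaternion_two hQ (fun x hx y hy hox hoy => by
    refine congrArg Subtype.val (?_ : (⟨x, hT hx⟩ : (T : Subgroup G)) = ⟨y, hT hy⟩)
    let f := (Sylow.equiv T S).trans e
    refine f.injective ?_
    have hq : ∀ x y : QuaternionGroup 2, x * x = 1 → y * y = 1 → x ≠ 1 → y ≠ 1 → x = y := by decide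
    refine hq _ _ ?_ ?_ ?_ ?_
    · rw [← map_mul, show (⟨x, hT hx⟩ : (T : Subgroup G)) * ⟨x, hT hx⟩ = 1 from
        Subtype.ext (inv_mul_self hox), map_one]
    · rw [← map_mul, show (⟨y, hT hy⟩ : (T : Subgroup G)) * ⟨y, hT hy⟩ = 1 from
        Subtype.ext (inv_mul_self hoy), map_one]
    · rw [← map_one f]
      exact fun h1 => inv_ne_one hox (congrArg Subtype.val (f.injective h1) :)
    · rw [← map_one f]
      exact fun h1 => inv_ne_one hoy (congrArg Subtype.val (f.injective h1) :)) hg hgo hgc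
  have hQT : Q = T := Subgroup.eq_of_le_of_card_ge hT (by
    rw [Nat.card_congr e'.toEquiv, T.card_eq_multiplicity, ← S.card_eq_multiplicity,
      Nat.card_congr e.toEquiv])
  obtain ⟨c, hc⟩ := MulAction.exists_smul_eq G T S
  have hS : (S : Subgroup G) = Q.map (MulAut.conj c).toMonoidHom := by rw [← hc, hQT]; rfl
  refine ⟨c * g * c⁻¹, ?_, ?_, ?_⟩
  · rw [hS, Subgroup.mem_normalizer_iff]
    intro x
    simp only [Subgroup.mem_map_equiv, MulAut.conj_symm_apply]
    rw [Subgroup.mem_normalizer_iff.1 hg (c⁻¹ * x * c)]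
    simp [mul_assoc]
  · rwa [orderOf_conj]
  · intro hcen
    refine hgc (mem_centralizer_iff.2 fun x hx => ?_)
    have h1 := mem_centralizer_iff.1 hcen (c * x * c⁻¹) (by rw [hS]; exact ⟨x, hx, rfl⟩)
    simp only [mul_assoc, inv_mul_cancel_left] at h1
    have h2 := mul_left_cancel h1
    rw [← mul_assoc x, ← mul_assoc g] at h2
    exact mul_right_cancel h2

theorem exists_qsetup (S : Sylow 2 G) (e : (S : Subgroup G) ≃* QuaternionGroup 2)
    (hnc : ¬ HasNormalPComplement 2 G) : ∃ y : G, QSetup y := by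
  have : Fact (Nat.Prime 2) := ⟨Nat.prime_two⟩
  obtain ⟨g, hg, hgo, hgc⟩ := exists_odd_normalizing S e hnc
  set y : G := ((e.symm (QuaternionGroup.a 1) : (S : Subgroup G)) : G) with hy
  have hy4 : orderOf y = 4 := by
    rw [hy, Subgroup.orderOf_coe, MulEquiv.orderOf_eq, QuaternionGroup.orderOf_a_one]
  have hyS : y ∈ (S : Subgroup G) := (e.symm (QuaternionGroup.a 1)).2
  refine ⟨y, hy4, fun a ha => ?_, fun h8 => ?_, fun a b ha hb hab => q8_sylow_uniq S e ha hb hab⟩
  · obtain ⟨T, hT⟩ := (IsPGroup.of_card (p := 2) (n := 2)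
      (by rw [Nat.card_zpowers, ha]; rfl) : IsPGroup 2 (zpowers a)).exists_le_sylow
    obtain ⟨c, hc⟩ := MulAction.exists_smul_eq G T S
    have hca : c * a * c⁻¹ ∈ (S : Subgroup G) := by
      rw [← hc]; exact ⟨a, hT (mem_zpowers a), rfl⟩
    exact (q8_conj_orbit e hg hgo hgc hyS hca hy4 (by rw [orderOf_conj, ha])).trans
      (isConj_conj c a).symm
  · obtain ⟨R, hR⟩ := Sylow.exists_subgroup_card_pow_prime (p := 2) (n := 3)
      (G := centralizer ({y} : Set G)) (by simpa using h8)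
    set R' := R.map (centralizer ({y} : Set G)).subtype with hR'
    have hR8 : Nat.card R' = 8 := by rw [hR', Subgroup.card_subtype, hR]; rfl
    have hR2 : IsPGroup 2 R' := IsPGroup.of_card (n := 3) (by rw [hR8]; rfl)
    obtain ⟨T, hT⟩ := hR2.exists_le_sylow
    have hTR : R' = (T : Subgroup G) := Subgroup.eq_of_le_of_card_ge hT (by
      rw [hR8, T.card_eq_multiplicity, ← S.card_eq_multiplicity, q8_sylow_card S e])
    have hcomm : ∀ r ∈ (T : Subgroup G), Commute r y := by
      rw [← hTR]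
      rintro _ ⟨r, -, rfl⟩
      exact mem_centralizer_singleton_iff.1 r.2
    have hyT : y ∈ (T : Subgroup G) := by
      have hn : zpowers y ≤ normalizer ((T : Subgroup G) : Set G) :=
        zpowers_le.2 (Subgroup.centralizer_le_normalizer _
          (mem_centralizer_iff.2 fun r hr => (hcomm r hr).eq))
      have hp := IsPGroup.to_sup_of_normal_left' T.2
        (IsPGroup.of_card (n := 2) (by rw [Nat.card_zpowers, hy4]; rfl)) hn
      exact (T.3 hp le_sup_left) ▸ mem_sup_right (mem_zpowers y)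
    let f := (Sylow.equiv T S).trans e
    obtain ⟨b, hb⟩ := q8_facts.2.1 (f ⟨y, hyT⟩) fun h2 => by
      rw [← map_pow, ← map_one f] at h2
      have h3 : y ^ 2 = 1 := (congrArg Subtype.val (f.injective h2) :)
      have := Nat.le_of_dvd two_pos (orderOf_dvd_of_pow_eq_one h3)
      omega
    apply hb
    obtain ⟨r, rfl⟩ := f.surjective b
    rw [← map_mul, ← map_mul]
    congr 1
    exact Subtype.ext (hcomm r r.2).symm.eq

end Cfsg.Agent.Invol
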