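import Cfsg.Agent.Invol.Q8Main
import Cfsg.Agent.Invol.Q8Sylow

/-!
# The principal 2-block with quaternion Sylow subgroup of order 8 has seven characters
-/

set_option autoImplicit false

namespace Cfsg.Agent.Invol

open Cfsg Subgroup
open Cfsg.Agent.Brauer (regSum)
open scoped ComplexConjugate

universe u

variable {G : Type u} [Group G] [Fintype G] {M : Ideal AlgInt} {y : G}

theorem card_principalBlock_seven (hM : IsPModular 2 M) (h : QSetup y) (hz : y ^ 2 ∈ center G) :
    Nat.card (principalBlock M G) = 7 := by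
  classical
  have hMp : M.IsPrime := hM.2.1.isPrime
  obtain ⟨K, hK⟩ := exists_centK h
  haveI := Fintype.ofFinite K
  obtain ⟨d⟩ := exists_exceptional h hK
  obtain ⟨B, hP⟩ := exists_blockData_of_exceptional hM h hz hK d
  have hB : IsPBlock M (principalBlock M G) := ⟨Char.trivialIrr G, rfl⟩
  have hG : (Nat.card G : ℂ) ≠ 0 := Nat.cast_ne_zero.mpr Nat.card_pos.ne'
  set t := Char.trivialIrr G with ht
  have htone : ((t : IrrCharacter G) : G → ℂ) = fun _ => 1 := rfl
  have htB : t ∈ principalBlock M G := by
    rw [Brauer.principalBlock_eq_blockOf_trivial]; exact Block.mem_blockOf_self _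
  choose cc hcc using fun χ : IrrCharacter G =>
    B.integral (χ : G → ℂ) (Char.isGeneralizedCharacter_of_irr χ.2)
  have horth : ∀ χ η : IrrCharacter G, ¬ (χ ∈ principalBlock M G ↔ η ∈ principalBlock M G) →
      regSum 2 (χ : G → ℂ) (η : G → ℂ) = 0 := by
    intro χ η hne
    by_cases hχ : χ ∈ principalBlock M G
    · exact Brauer.regSum_eq_zero_of_integral hM _ (Block.blockCoeff_memLocalRing hB) hχ
        fun hη => hne (iff_of_true hχ hη)
    · have hη : η ∈ principalBlock M G := by
        by_contra hη
        exact hne (iff_of_false hχ hη)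
      rw [← Brauer.regSum_conj, Brauer.regSum_eq_zero_of_integral hM _
        (Block.blockCoeff_memLocalRing hB) hη hχ, map_zero]
  have hout : ∀ χ : IrrCharacter G, χ ∉ principalBlock M G → ∀ j, cc χ j = 0 := by
    intro χ hχ j
    have h1 := hcc χ j
    rw [B.orth (χ : G → ℂ) (fun η hη => horth χ η fun hiff => hχ (hiff.2 hη)) j, mul_zero] at h1
    exact_mod_cast ((mul_eq_zero.1 h1.symm).resolve_left hG)
  have hct : ∀ j, cc t j = -1 := fun j => by
    have h1 := hcc t j
    rw [htone, B.one_P] at h1
    have h2 : ((cc t j : ℤ) : ℂ) = ((-1 : ℤ) : ℂ) := by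
      push_cast
      exact mul_left_cancel₀ hG (by linear_combination -h1)
    exact_mod_cast h2
  have hcζ : ∀ i j, d.ε i * cc (d.ζ i) j = if i = j then 1 else 0 := by
    intro i j
    have e : regSum 2 (B.P i) (B.P j) =
        (d.ε i : ℂ) * regSum 2 (d.ζ i : G → ℂ) (B.P j) - regSum 2 (fun _ => 1) (B.P j) := by
      simp only [regSum, hP, Finset.mul_sum, ← Finset.sum_sub_distrib]
      exact Finset.sum_congr rfl fun x _ => by ring
    have h1 := B.gram j i
    have h2 := B.one_P j
    have h3 := hcc (d.ζ i) j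
    have h4 : ((d.ε i * cc (d.ζ i) j : ℤ) : ℂ) = ((if i = j then 1 else 0 : ℤ) : ℂ) := by
      apply mul_left_cancel₀ hG
      by_cases hij : i = j
      · subst hij
        rw [if_pos rfl] at h1 ⊢
        push_cast
        linear_combination h1 + h2 - 2 * e - (d.ε i : ℂ) * h3
      · rw [if_neg (Ne.symm hij)] at h1
        rw [if_neg hij]
        push_cast
        linear_combination h1 + h2 - 2 * e - (d.ε i : ℂ) * h3
    exact_mod_cast h4
  have hgram : ∀ j, ∑ χ, cc χ j * cc χ j = 4 := by
    intro j
    have hcol : ∀ v : G, ¬ 2 ∣ orderOf v →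
        ∑ w ∈ Finset.univ.filter (fun w : G => ¬ 2 ∣ orderOf w), B.P j w *
          (∑ χ : IrrCharacter G, (χ : G → ℂ) v * conj ((χ : G → ℂ) w)) =
          (Nat.card G : ℂ) * B.P j v := by
      intro v hv
      simp only [sum_irr_mul_conj_eq_card, Finset.mul_sum, ← Finset.sum_boole]
      rw [Finset.sum_comm, Finset.sum_congr rfl (g := fun _ : G => B.P j v) (fun g _ => ?_),
        Finset.sum_const, Finset.card_univ, nsmul_eq_mul, Nat.card_eq_fintype_card]
      rw [Finset.sum_eq_single (g * v * g⁻¹)]
      · rw [if_pos rfl, mul_one, B.isClass j v g]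
      · intro w _ hne
        rw [if_neg (Ne.symm hne), mul_zero]
      · intro hnot
        exfalso
        refine hnot (Finset.mem_filter.2 ⟨Finset.mem_univ _, ?_⟩)
        rwa [orderOf_conj]
    have h1 : ((Nat.card G : ℂ) ^ 2) * ((∑ χ, cc χ j * cc χ j : ℤ) : ℂ) =
        (Nat.card G : ℂ) ^ 2 * ((4 : ℤ) : ℂ) := by
      calc ((Nat.card G : ℂ) ^ 2) * ((∑ χ, cc χ j * cc χ j : ℤ) : ℂ)
          = ∑ χ : IrrCharacter G,
              4 * (regSum 2 (χ : G → ℂ) (B.P j) * conj (regSum 2 (χ : G → ℂ) (B.P j))) := by
            push_cast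
            rw [Finset.mul_sum]
            refine Finset.sum_congr rfl fun χ _ => ?_
            have e2 := congrArg conj (hcc χ j)
            simp only [map_mul, map_ofNat, Complex.conj_natCast, map_intCast] at e2
            linear_combination (-(2 : ℂ) * conj (regSum 2 (χ : G → ℂ) (B.P j))) * hcc χ j
              - ((Nat.card G : ℂ) * (cc χ j : ℂ)) * e2
        _ = 4 * ∑ v ∈ Finset.univ.filter (fun v : G => ¬ 2 ∣ orderOf v), conj (B.P j v) *
              (∑ w ∈ Finset.univ.filter (fun w : G => ¬ 2 ∣ orderOf w), B.P j w *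
                (∑ χ : IrrCharacter G, (χ : G → ℂ) v * conj ((χ : G → ℂ) w))) := by
            simp only [regSum, map_sum, map_mul, Complex.conj_conj, Finset.mul_sum, Finset.sum_mul]
            rw [Finset.sum_comm]
            conv_rhs => rw [Finset.sum_comm]
            refine Finset.sum_congr rfl fun v _ => ?_
            rw [Finset.sum_comm]
            exact Finset.sum_congr rfl fun w _ => Finset.sum_congr rfl fun χ _ => by ring
        _ = 4 * ((Nat.card G : ℂ) * regSum 2 (B.P j) (B.P j)) := by
            congr 1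
            rw [regSum, Finset.mul_sum]
            refine Finset.sum_congr rfl fun v hv => ?_
            rw [hcol v (Finset.mem_filter.1 hv).2]
            ring
        _ = _ := by
            have hg := B.gram j j
            rw [if_pos rfl] at hg
            push_cast
            linear_combination 2 * (Nat.card G : ℂ) * hg
    exact_mod_cast mul_left_cancel₀ (pow_ne_zero 2 hG) h1
  set R := Finset.univ \ insert t (Finset.univ.image d.ζ) with hR
  have hsplit : ∀ {A : Type} [AddCommMonoid A] (f : IrrCharacter G → A),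
      ∑ χ, f χ = (f t + ∑ i, f (d.ζ i)) + ∑ r ∈ R, f r := by
    intro A _ f
    exact sum_split_four t d.ζ d.inj d.ne_one f
  have hRsq : ∀ j, ∑ r ∈ R, cc r j * cc r j = 2 := by
    intro j
    have h1 := hgram j
    rw [hsplit, hct, Finset.sum_eq_single j (fun i _ hi => by
      have h2 := hcζ i j
      rw [if_neg hi] at h2
      rcases mul_eq_zero.1 h2 with h3 | h3
      · rcases d.sign i with e | e <;> omega
      · rw [h3, mul_zero]) (by simp)] at h1
    have h2 := hcζ j j
    rw [if_pos rfl] at h2
    rcases Int.mul_eq_one_iff_eq_one_or_neg_one.1 h2 with ⟨-, h3⟩ | ⟨-, h3⟩ <;> rw [h3] at h1 <;>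
      linarith
  -- every further member of the block has exactly two nonzero coefficients
  have hrow : ∀ r ∈ R, ∑ j, cc r j * cc r j = if r ∈ principalBlock M G then 2 else 0 := by
    intro r hr
    obtain ⟨e1, e2⟩ := notMem_split hr
    by_cases hrB : r ∈ principalBlock M G
    swap
    · rw [if_neg hrB]; simp [hout r hrB]
    rw [if_pos hrB]
    have hanti : ∀ x, (r : G → ℂ) (y ^ 2 * x) = -(r : G → ℂ) x :=
      (irr_zmul_cases h hz r).resolve_left fun hinv =>
        d.notMem_of_other hM h hK hz r e1 e2 hinv hrB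
    have hy0 : (r : G → ℂ) y = 0 := by
      rw [← nval_of_mem_principalBlock hM h hK hrB]
      exact d.nval_zero r e1 e2
    obtain ⟨a, b, ha, hb, hab⟩ := exists_parity (Char.isCharacter_of_irr r.2)
      (h.hy ▸ pow_orderOf_eq_one y) (by rw [hy0, map_zero])
    obtain ⟨n, hnpos, hn⟩ := Char.irr_one_pos r.2
    have ha0 : a = 0 := by rw [hy0] at ha; exact_mod_cast ha.symm
    have hbn : b = -(n : ℤ) := by
      have h2 := hanti 1
      rw [mul_one, hb, hn] at h2
      exact_mod_cast h2
    have hexp : (n : ℤ) = ∑ j, cc r j * B.p j := by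
      have h1 := B.expand (r : G → ℂ) (Char.irr_isClassFunction r.2)
        (fun η hη => horth r η fun hiff => hη (hiff.1 hrB))
      simp only [hcc, mul_assoc, ← Finset.mul_sum, hn] at h1
      have h2 := mul_left_cancel₀ hG h1
      exact_mod_cast h2
    have hbound : ∀ j, -1 ≤ cc r j ∧ cc r j ≤ 1 := by
      intro j
      have h1 : cc r j * cc r j ≤ 2 := hRsq j ▸
        Finset.single_le_sum (f := fun r => cc r j * cc r j) (fun x _ => mul_self_nonneg _) hr
      constructor <;> nlinarith
    obtain ⟨k0, hk0⟩ := B.p_odd 0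
    obtain ⟨k1, hk1⟩ := B.p_odd 1
    obtain ⟨k2, hk2⟩ := B.p_odd 2
    simp only [Fin.sum_univ_three, hk0, hk1, hk2] at hexp ⊢
    obtain ⟨l0, u0⟩ := hbound 0
    obtain ⟨l1, u1⟩ := hbound 1
    obtain ⟨l2, u2⟩ := hbound 2
    interval_cases c0 : cc r 0 <;> interval_cases c1 : cc r 1 <;> interval_cases c2 : cc r 2 <;>
      omega
  have hcount : (R.filter (· ∈ principalBlock M G)).card = 3 := by
    have h1 : ∑ r ∈ R, (if r ∈ principalBlock M G then (2 : ℤ) else 0) = 6 := by
      rw [← Finset.sum_congr rfl hrow, Finset.sum_comm, Fin.sum_univ_three, hRsq, hRsq, hRsq]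
      norm_num
    rw [← Finset.sum_filter, Finset.sum_const, nsmul_eq_mul] at h1
    omega
  have h3 : ∑ r ∈ R, (if r ∈ principalBlock M G then 1 else 0 : ℕ) = 3 := by
    rw [← Finset.sum_filter, ← Finset.card_eq_sum_ones, hcount]
  have h2 : ((principalBlock M G).toFinset.card : ℕ) = 7 := by
    rw [Finset.card_eq_sum_ones, show (principalBlock M G).toFinset =
      Finset.univ.filter (· ∈ principalBlock M G) by ext χ; simp, Finset.sum_filter, hsplit, h3,
      if_pos htB, Fin.sum_univ_three]
    simp [d.mem_principalBlock hM h hK]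
  rwa [Nat.card_eq_fintype_card, ← Set.toFinset_card]

end Cfsg.Agent.Invol
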